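import Mathlib
import Cfsg.Agent.H662.GW.Defs
import Cfsg.Agent.H511.Wt.QPF
import Cfsg.Agent.H615.GW.Abelian

/-!
# Gluck-Wolf: the elementary fixed point bound
-/

set_option autoImplicit false
set_option linter.style.haveILetI false
set_option linter.unusedSectionVars false
open Cfsg

namespace Cfsg.Agent.H615.GW

open Cfsg.Agent.H662.GW Cfsg.Agent.H511.Wt
open scoped commutatorElement

section abstract_form
variable {Y U : Type*} [Group Y] [AddCommGroup U] [DistribMulAction Y U]

theorem unip {z : Y} {p : ℕ} (hz : z ^ p = 1) (hcop : ∀ u : U, p • u = 0 → u = 0) {v : U}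
    (h : z • (z • v - v) = z • v - v) : z • v = v := by
  set d := z • v - v with hd
  have h1 : ∀ k : ℕ, z ^ k • v = v + k • d := by
    intro k
    induction k with
    | zero => rw [pow_zero, one_smul, zero_smul, add_zero]
    | succ k ih =>
      have h2 : z • (k • d) = k • d := by rw [smul_comm, h]
      rw [pow_succ', mul_smul, ih, smul_add, h2, succ_nsmul, ← add_assoc]
      have h3 : z • v = v + d := by rw [hd]; abel
      rw [h3]
      abel
  have h2 := h1 p
  rw [hz, one_smul] at h2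
  have h3 : p • d = 0 := by
    have := h2.symm
    rwa [add_eq_left] at this
  have h4 := hcop d h3
  rw [hd, sub_eq_zero] at h4
  exact h4

theorem act_trivial {D : Type*} [CommGroup D] (B : U → U → D)
    (addl : ∀ u v w, B (u + v) w = B u w * B v w) (anti : ∀ u v, B u v * B v u = 1)
    (nd : ∀ u, (∀ v, B v u = 1) → u = 0) (y : Y) (inv : ∀ u v, B (y • u) (y • v) = B u v)
    (hiso : ∀ u, B (u - y • u) (y • (u - y • u)) = 1) {p : ℕ} (hp : Odd p) (hyp : y ^ p = 1)
    (hcop : ∀ u : U, p • u = 0 → u = 0) (v : U) : y • v = v := by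
  have anti' : ∀ u v, B v u = (B u v)⁻¹ := fun u v => eq_inv_of_mul_eq_one_right (anti u v)
  have addr : ∀ u v w, B u (v + w) = B u v * B u w := by
    intro u v w
    rw [anti' (v + w) u, addl, anti' v u, anti' w u, mul_inv]
  have subr : ∀ u v w, B u (v - w) = B u v * (B u w)⁻¹ := by
    intro u v w
    have h1 := addr u (v - w) w
    rw [sub_add_cancel] at h1
    rw [h1, mul_inv_cancel_right]
  have subl : ∀ u v w, B (u - v) w = B u w * (B v w)⁻¹ := by
    intro u v w
    have h1 := addl (u - v) v w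
    rw [sub_add_cancel] at h1
    rw [h1, mul_inv_cancel_right]
  have inv' : ∀ u v, B (y • u) v = B u (y⁻¹ • v) := by
    intro u v
    rw [← inv u (y⁻¹ • v), smul_inv_smul]
  have key : ∀ u v : U, B (u - y • u) (y • (v - y • v)) = B (u - y • u) (y⁻¹ • (v - y • v)) := by
    intro u v
    have h1 := hiso (u + v)
    have h2 : u + v - y • (u + v) = (u - y • u) + (v - y • v) := by rw [smul_add]; abel
    rw [h2, smul_add, addl, addr, addr, hiso u, hiso v, one_mul, mul_one] at h1
    rw [anti' (y • (u - y • u)) (v - y • v), inv'] at h1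
    exact mul_inv_eq_one.1 h1
  have h3 : ∀ v : U, y⁻¹ • (y • (v - y • v) - y⁻¹ • (v - y • v)) = y • (v - y • v) - y⁻¹ • (v - y • v) := by
    intro v
    set m := y • (v - y • v) - y⁻¹ • (v - y • v) with hm
    have h4 : ∀ u, B u (m - y⁻¹ • m) = 1 := by
      intro u
      have h5 : B (u - y • u) m = 1 := by rw [hm, subr, key, mul_inv_cancel]
      rw [subl, inv'] at h5
      rw [subr, h5]
    have h5 := nd _ h4
    rw [sub_eq_zero] at h5
    exact h5.symm
  -- `(y - 1) ^ 3 (y + 1) = 0`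
  have h4 : ∀ v : U, y • y • y • y • v = 2 • (y • y • y • v) - 2 • (y • v) + v := by
    intro v
    have h5 := congrArg (fun u => y • y • u) (h3 v)
    simp only [smul_sub, smul_inv_smul] at h5
    have h6 : (y • y • y • y • v) - (2 • (y • y • y • v) - 2 • (y • v) + v) =
        (y • y • v - y • y • y • v - (v - y • v)) - (y • y • y • v - y • y • y • y • v - (y • v - y • y • v)) := by
      rw [two_nsmul, two_nsmul]
      abel
    rw [← sub_eq_zero, h6, h5, sub_self]
  have h5 : ∀ v : U, (y ^ 2) • ((y ^ 2) • ((y ^ 2) • v - v) - ((y ^ 2) • v - v)) = (y ^ 2) • ((y ^ 2) • v - v) - ((y ^ 2) • v - v) := by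
    intro v
    have e : ∀ u : U, (y ^ 2) • u = y • y • u := fun u => by rw [pow_two, mul_smul]
    simp only [e, smul_sub]
    have h6 := h4 v
    have h7 := h4 (y • v)
    have h8 := h4 (y • y • v)
    simp only [two_nsmul] at h6 h7 h8
    rw [h8, h7, h6]
    abel
  have hz : (y ^ 2) ^ p = 1 := by rw [← pow_mul, mul_comm, pow_mul, hyp, one_pow]
  have h6 : ∀ v : U, (y ^ 2) • v = v := by
    intro v
    have h7 := unip hz hcop (h5 v)
    exact unip hz hcop h7
  obtain ⟨k, rfl⟩ := hp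
  have h7 : ∀ k : ℕ, ∀ v : U, y ^ (2 * k) • v = v := by
    intro k v
    induction k with
    | zero => rw [mul_zero, pow_zero, one_smul]
    | succ k ih => rw [mul_add, mul_one, pow_add, mul_smul, h6, ih]
  have h8 : y ^ (2 * k + 1) • v = v := by rw [hyp, one_smul]
  rw [pow_succ', mul_smul, h7] at h8
  exact h8

end abstract_form

variable {p r s n : ℕ} {G W Y U : Type*} [Group G] [Finite G] [AddCommGroup W] [Finite W]
    [DistribMulAction G W] [Group Y] [Finite Y] [AddCommGroup U] [Finite U] [DistribMulAction Y U]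
    {K L Z : Subgroup G} {π : G →* Y} {a : L →* Multiplicative U}

/-- an element of `Z` fixing a nonzero vector acts trivially -/
theorem scal_trivial (h : LW (W := W) p r s n K L Z π a) {z : G} (hz : z ∈ Z) {w : W} (hw : w ≠ 0) (hzw : z • w = w) :
    ∀ w : W, z • w = w := by
  let A : AddSubgroup W := fx W z
  have hA : A = ⊤ := by
    refine (h.irr A ?_).resolve_left ?_
    · intro l hl w hw
      have hw' : z • w = w := hw
      change z • l • w = l • w
      rw [h.scal z hz l hl, hw']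
    · intro h0
      apply hw
      have : w ∈ A := hzw
      rw [h0] at this
      exact this
  intro w
  have : w ∈ A := by rw [hA]; exact AddSubgroup.mem_top w
  exact this

theorem fix_sq (h : LW (W := W) p r s n K L Z π a) (hp2 : p ≠ 2) {x : G} (hxp : x ^ p = 1)
    (hxU : ∃ u : U, π x • u ≠ u) : Nat.card {w : W // x • w = w} ^ 2 ≤ Nat.card W := by
  classical
  change Nat.card (fx W x) ^ 2 ≤ Nat.card W
  by_contra hcon
  push Not at hcon
  -- two conjugates have a common fixed vector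
  have hex : ∀ g : G, ∃ w : W, w ≠ 0 ∧ x • w = w ∧ (g * x * g⁻¹) • w = w := by
    intro g
    by_contra h0
    push Not at h0
    have h1 : fx W x ⊓ fx W (g * x * g⁻¹) = ⊥ := by
      rw [eq_bot_iff]
      rintro w ⟨h1, h2⟩
      rw [AddSubgroup.mem_bot]
      by_contra hw
      exact h0 w hw h1 h2
    have h2 := card_mul_le (fx W x) (fx W (g * x * g⁻¹))
    rw [card_fx_conj, h1, AddSubgroup.card_bot, mul_one, ← pow_two] at h2
    omega
  have hcomm : ∀ g : G, ∃ w : W, w ≠ 0 ∧ x • w = w ∧ ⁅g, x⁆ • w = w := by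
    intro g
    obtain ⟨w, hw, h1, h2⟩ := hex g
    refine ⟨w, hw, h1, ?_⟩
    have h3 : x⁻¹ • w = w := by rw [inv_smul_eq_iff, h1]
    rw [commutatorElement_def, mul_smul, h3, h2]
  haveI := h.nL
  haveI := h.nZ
  set ρ : G →* (AddMonoid.End W)ˣ := rho G W with hρ
  have hρ1 : ∀ z ∈ Z, (∃ w : W, w ≠ 0 ∧ z • w = w) → ρ z = 1 := by
    rintro z hz ⟨w, hw, hzw⟩
    exact rho_eq_one.2 (scal_trivial h hz hw hzw)
  have hZL : ∀ z ∈ Z, ∀ l ∈ L, ρ z * ρ l = ρ l * ρ z := by
    intro z hz l hl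
    apply Units.ext
    apply AddMonoidHom.ext
    intro w
    exact h.scal z hz l hl w
  -- `x` commutes with `Z`
  have hxZ : ∀ z ∈ Z, ρ z * ρ x = ρ x * ρ z := by
    intro z hz
    obtain ⟨w, hw, -, h2⟩ := hcomm z
    have h3 : ⁅z, x⁆ ∈ Z := by
      have h4 : ⁅z, x⁆ = z * (x * z⁻¹ * x⁻¹) := by rw [commutatorElement_def]; group
      rw [h4]
      exact Z.mul_mem hz (h.nZ.conj_mem _ (Z.inv_mem hz) x)
    have h4 := hρ1 _ h3 ⟨w, hw, h2⟩
    rw [map_commutatorElement, commutatorElement_eq_one_iff_mul_comm] at h4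
    exact h4
  -- the form
  let D : Subgroup (AddMonoid.End W)ˣ := Z.map ρ
  have hDc : ∀ a b : D, a * b = b * a := by
    rintro ⟨_, a, ha, rfl⟩ ⟨_, b, hb, rfl⟩
    exact Subtype.ext (hZL a ha b (h.ZL hb))
  letI : CommGroup D := { (inferInstance : Group D) with mul_comm := hDc }
  let c : L → L → D := fun l l' => ⟨ρ ⁅(l : G), (l' : G)⁆, _, h.comm l l.2 l' l'.2, rfl⟩
  have hcanti : ∀ l l', c l l' * c l' l = 1 := by
    intro l l'
    apply Subtype.ext
    change ρ ⁅(l : G), (l' : G)⁆ * ρ ⁅(l' : G), (l : G)⁆ = 1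
    rw [← map_mul, ← commutatorElement_inv (l' : G) (l : G), inv_mul_cancel, map_one]
  have hcmul : ∀ l l' m, c (l * l') m = c l m * c l' m := by
    intro l l' m
    rw [hDc]
    apply Subtype.ext
    change ρ ⁅(l : G) * l', (m : G)⁆ = ρ ⁅(l' : G), (m : G)⁆ * ρ ⁅(l : G), (m : G)⁆
    have e : ⁅(l : G) * l', (m : G)⁆ = (l : G) * ⁅(l' : G), (m : G)⁆ * (l : G)⁻¹ * ⁅(l : G), (m : G)⁆ := by
      simp only [commutatorElement_def]
      group
    have e2 := hZL _ (h.comm l' l'.2 m m.2) l l.2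
    rw [e, map_mul, map_mul, map_mul, ← e2, map_inv, mul_inv_cancel_right]
  have hcZ : ∀ l l' : L, (l : G) ∈ Z → c l l' = 1 := by
    intro l l' hl
    apply Subtype.ext
    change ρ ⁅(l : G), (l' : G)⁆ = 1
    rw [map_commutatorElement, commutatorElement_eq_one_iff_mul_comm]
    exact hZL l hl l' l'.2
  have hwd : ∀ l l' m : L, a l = a l' → c l m = c l' m := by
    intro l l' m hll
    have h1 : a (l * l'⁻¹) = 1 := by rw [map_mul, map_inv, hll, mul_inv_cancel]
    have h2 := hcZ (l * l'⁻¹) m ((h.ker _).1 h1)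
    have h3 := hcmul (l * l'⁻¹) l' m
    rw [inv_mul_cancel_right, h2, one_mul] at h3
    exact h3
  have hwd' : ∀ l m m' : L, a m = a m' → c l m = c l m' := by
    intro l m m' hmm
    have h1 := hcanti m l
    have h2 := hcanti m' l
    rw [← hwd m m' l hmm] at h2
    exact mul_left_cancel (h1.trans h2.symm)
  choose g hg using h.surj
  let B : U → U → D := fun u v => c (g (Multiplicative.ofAdd u)) (g (Multiplicative.ofAdd v))
  have hB : ∀ l l' : L, B (Multiplicative.toAdd (a l)) (Multiplicative.toAdd (a l')) = c l l' := by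
    intro l l'
    change c (g (a l)) (g (a l')) = c l l'
    rw [hwd _ l _ (hg _), hwd' _ _ l' (hg _)]
  have hsur : ∀ u : U, ∃ l : L, u = Multiplicative.toAdd (a l) := by
    intro u
    obtain ⟨l, hl⟩ := h.surj (Multiplicative.ofAdd u)
    exact ⟨l, by rw [hl]; rfl⟩
  let cj : G → L → L := fun g l => ⟨g * l * g⁻¹, h.nL.conj_mem l l.2 g⟩
  have hcj : ∀ (g : G) (l : L), Multiplicative.toAdd (a (cj g l)) = π g • Multiplicative.toAdd (a l) := by
    intro g l
    exact h.equiv g l l.2 _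
  obtain ⟨u, hu⟩ := hxU
  apply hu
  refine act_trivial B ?_ ?_ ?_ (π x) ?_ ?_ (h.hp.odd_of_ne_two hp2) (by rw [← map_pow, hxp, map_one]) ?_ u
  · intro u v w
    obtain ⟨l, rfl⟩ := hsur u
    obtain ⟨m, rfl⟩ := hsur v
    obtain ⟨k, rfl⟩ := hsur w
    rw [← toAdd_mul, ← map_mul, hB, hB, hB, hcmul]
  · intro u v
    exact hcanti _ _
  · intro u hu
    obtain ⟨l, rfl⟩ := hsur u
    have h1 : (l : G) ∈ Z := by
      refine h.nd l l.2 ?_
      intro l' hl' w
      have h2 := hu (Multiplicative.toAdd (a ⟨l', hl'⟩))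
      rw [hB] at h2
      have h3 : ρ ⁅l', (l : G)⁆ = 1 := congrArg Subtype.val h2
      rw [map_commutatorElement, commutatorElement_eq_one_iff_mul_comm] at h3
      have h4 := congrArg (fun f : (AddMonoid.End W)ˣ => (f : AddMonoid.End W) w) h3
      exact h4.symm
    rw [(h.ker l).2 h1]
    rfl
  · intro u v
    obtain ⟨l, rfl⟩ := hsur u
    obtain ⟨m, rfl⟩ := hsur v
    rw [← hcj, ← hcj, hB, hB]
    apply Subtype.ext
    change ρ ⁅x * (l : G) * x⁻¹, x * (m : G) * x⁻¹⁆ = ρ ⁅(l : G), (m : G)⁆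
    have e : ⁅x * (l : G) * x⁻¹, x * (m : G) * x⁻¹⁆ = x * ⁅(l : G), (m : G)⁆ * x⁻¹ := by
      simp only [commutatorElement_def]
      group
    have e2 := hxZ _ (h.comm l l.2 m m.2)
    rw [e, map_mul, map_mul, ← e2, map_inv, mul_inv_cancel_right]
  · intro u
    obtain ⟨l, rfl⟩ := hsur u
    obtain ⟨w, hw, hxw, h2⟩ := hcomm l
    let y : L := l * (cj x l)⁻¹
    have hy : (y : G) = ⁅(l : G), x⁆ := by
      change (l : G) * (x * l * x⁻¹)⁻¹ = _
      rw [commutatorElement_def]
      group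
    have h3 : Multiplicative.toAdd (a l) - π x • Multiplicative.toAdd (a l) = Multiplicative.toAdd (a y) := by
      rw [← hcj, map_mul, map_inv, toAdd_mul, toAdd_inv, sub_eq_add_neg]
    rw [h3, ← hcj, hB]
    apply Subtype.ext
    change ρ ⁅(y : G), x * (y : G) * x⁻¹⁆ = 1
    have hyw : (y : G) • w = w := by rw [hy]; exact h2
    have hxw' : x⁻¹ • w = w := by rw [inv_smul_eq_iff, hxw]
    have hyw' : (x * (y : G) * x⁻¹) • w = w := by rw [mul_smul, mul_smul, hxw', hyw, hxw]
    have hi : ∀ g : G, g • w = w → g⁻¹ • w = w := fun g hg => by rw [inv_smul_eq_iff, hg]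
    refine hρ1 _ (h.comm _ y.2 _ (h.nL.conj_mem _ y.2 x)) ⟨w, hw, ?_⟩
    rw [commutatorElement_def, mul_smul, mul_smul, mul_smul, hi _ hyw', hi _ hyw, hyw', hyw]
  · intro u hu
    have h1 : addOrderOf u ∣ p := addOrderOf_dvd_iff_nsmul_eq_zero.2 hu
    have h2 : addOrderOf u ∣ s ^ (2 * n) := by rw [← h.card]; exact addOrderOf_dvd_natCard u
    have h3 : Nat.Coprime p (s ^ (2 * n)) := Nat.Coprime.pow_right _ ((Nat.coprime_primes h.hp h.hs).2 h.hps)
    have h4 : addOrderOf u = 1 := Nat.dvd_one.1 (h3 ▸ Nat.dvd_gcd h1 h2)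
    exact AddMonoid.addOrderOf_eq_one_iff.1 h4

end Cfsg.Agent.H615.GW
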